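import Mathlib
import Cfsg.Agent.S0904
import Cfsg.Agent.S0985
import Cfsg.Agent.S0991
import Cfsg.Agent.Lib.Helper4.SmallSimple
import Cfsg.Agent.Lib.Helper5.LinearCard

set_option autoImplicit false

/-! # No simple group of order 720 (paper proof: helper25 #2990; farm: helper18): definitions -/

namespace Cfsg.Agent.Lib.Helper18.O720

variable {G : Type*} [Group G]

/-- `g M g⁻¹` -/
abbrev cj (g : G) (M : Subgroup G) : Subgroup G := M.map (MulAut.conj g).toMonoidHom

/-- normalizer -/
abbrev Nm (M : Subgroup G) : Subgroup G := Subgroup.normalizer (M : Set G)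

/-- centralizer -/
abbrev Cn (M : Subgroup G) : Subgroup G := Subgroup.centralizer (M : Set G)

/-- a subgroup of order 3 contained in two distinct Sylow 3-subgroups -/
def Dbl (D : Subgroup G) : Prop :=
  Nat.card D = 3 ∧ ∃ P R : Sylow 3 G, P ≠ R ∧ D ≤ (P : Subgroup G) ∧ D ≤ (R : Subgroup G)

end Cfsg.Agent.Lib.Helper18.O720
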